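-- Team project SPU (S2316): package [DEC2] (helper11).
import Mathlib
import Cfsg.Agent.Lib.Helper19.SPU.Defs

/-!
# SPU [DEC2]: orthogonal Fitting decomposition of `X ∈ 𝒜(K)` with respect to `X² + X`
-/

set_option autoImplicit false

namespace Cfsg.Agent.Lib.Helper11.SPU

open Matrix Cfsg.Agent.Lib.Helper19.SPU

universe u

section

variable {F : Type u} [Field F]

/-- Sylvester: `Z A = N Z`, `N` nilpotent, `A` invertible, forces `Z = 0`. -/
theorem sylv_left {a b : Type} [Fintype a] [DecidableEq a] [Fintype b] [DecidableEq b]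
    (N : Matrix a a F) (A : Matrix b b F) (hN : IsNilpotent N) (hA : IsUnit A)
    (Z : Matrix a b F) (h : Z * A = N * Z) : Z = 0 := by
  have key : ∀ j : ℕ, Z * A ^ j = N ^ j * Z := by
    intro j
    induction j with
    | zero => simp
    | succ j ih =>
      rw [pow_succ, ← Matrix.mul_assoc, ih, Matrix.mul_assoc, h, ← Matrix.mul_assoc, ← pow_succ]
  obtain ⟨j, hj⟩ := hN
  have h0 : Z * A ^ j = 0 := by rw [key, hj, Matrix.zero_mul]
  obtain ⟨u, hu⟩ := hA.pow j
  calc Z = Z * (u.val * (u⁻¹).val) := by rw [Units.mul_inv, Matrix.mul_one]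
    _ = (Z * A ^ j) * (u⁻¹).val := by rw [← Matrix.mul_assoc, hu]
    _ = 0 := by rw [h0, Matrix.zero_mul]

/-- Sylvester, the other side: `Z N = A Z`, `N` nilpotent, `A` invertible, forces `Z = 0`. -/
theorem sylv_right {a b : Type} [Fintype a] [DecidableEq a] [Fintype b] [DecidableEq b]
    (N : Matrix a a F) (A : Matrix b b F) (hN : IsNilpotent N) (hA : IsUnit A)
    (Z : Matrix b a F) (h : Z * N = A * Z) : Z = 0 := by
  have key : ∀ j : ℕ, A ^ j * Z = Z * N ^ j := by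
    intro j
    induction j with
    | zero => simp
    | succ j ih =>
      rw [pow_succ, Matrix.mul_assoc, ← h, ← Matrix.mul_assoc, ih, Matrix.mul_assoc, ← pow_succ]
  obtain ⟨j, hj⟩ := hN
  have h0 : A ^ j * Z = 0 := by rw [key, hj, Matrix.mul_zero]
  obtain ⟨u, hu⟩ := hA.pow j
  calc Z = ((u⁻¹).val * u.val) * Z := by rw [Units.inv_mul, Matrix.one_mul]
    _ = (u⁻¹).val * (A ^ j * Z) := by rw [Matrix.mul_assoc, hu]
    _ = 0 := by rw [h0, Matrix.mul_zero]

/-- congruence keeps a form alternating -/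
theorem alt_congr {n m : Type} [Fintype n] [DecidableEq n] [Fintype m] [DecidableEq m]
    (K : Matrix n n F) (hK1 : Kᵀ = -K) (hK2 : ∀ i, K i i = 0) (P : Matrix n m F) :
    (Pᵀ * K * P)ᵀ = -(Pᵀ * K * P) ∧ ∀ i, (Pᵀ * K * P) i i = 0 := by
  refine ⟨?_, ?_⟩
  · rw [Matrix.transpose_mul, Matrix.transpose_mul, Matrix.transpose_transpose, hK1,
      Matrix.neg_mul, Matrix.mul_neg, Matrix.mul_assoc]
  · intro i
    have hsk : ∀ j k, K k j = -K j k := fun j k => by
      have := congrFun (congrFun hK1 j) k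
      simpa [Matrix.transpose_apply] using this
    rw [Matrix.mul_apply]
    simp only [Matrix.mul_apply, Matrix.transpose_apply, Finset.sum_mul]
    rw [← Finset.sum_product']
    refine Finset.sum_involution (fun a _ => (a.2, a.1)) ?_ ?_ ?_ ?_
    · rintro ⟨k, j⟩ -
      simp only
      rw [hsk j k]
      ring
    · rintro ⟨k, j⟩ - hne heq
      simp only [Prod.mk.injEq] at heq
      obtain ⟨rfl, -⟩ := heq
      apply hne
      simp [hK2]
    · intro a _
      exact Finset.mem_univ _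
    · rintro ⟨k, j⟩ -
      rfl

/-- conjugating a commuting pair -/
theorem conj_comm {R : Type*} [Ring R] (P Pi M D X : R) (h1 : P * Pi = 1) (h2 : Pi * P = 1)
    (hM : M * P = P * D) (hX : X * M = M * X) : (Pi * X * P) * D = D * (Pi * X * P) := by
  have hD : D = Pi * M * P := by rw [mul_assoc, hM, ← mul_assoc, h2, one_mul]
  calc Pi * X * P * D = Pi * (X * M) * P := by
        rw [mul_assoc (Pi * X), ← hM]
        simp only [mul_assoc]
    _ = Pi * M * (P * Pi) * X * P := by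
        rw [hX, h1]
        simp only [mul_assoc, mul_one]
    _ = D * (Pi * X * P) := by
        rw [hD]
        simp only [mul_assoc]

/-- `X ∈ 𝒜(K)`: `X² + X` is self-adjoint for `K` -/
theorem affA_comm {n : Type} [Fintype n] [DecidableEq n] (K X : Matrix n n F) (h : AffA K X) :
    K * (X * X + X) = (X * X + X)ᵀ * K := by
  unfold AffA at h
  have e1 : K * X + K = -(Xᵀ * K) := by
    rw [eq_neg_iff_add_eq_zero, ← h]
    abel
  have e2 : Xᵀ * K + K = -(K * X) := by
    rw [eq_neg_iff_add_eq_zero, ← h]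
    abel
  calc K * (X * X + X) = (K * X + K) * X := by
        rw [Matrix.mul_add, Matrix.add_mul, Matrix.mul_assoc]
    _ = -(Xᵀ * K * X) := by rw [e1, Matrix.neg_mul]
    _ = Xᵀ * (Xᵀ * K + K) := by rw [e2, Matrix.mul_neg, Matrix.mul_assoc]
    _ = (X * X + X)ᵀ * K := by
        rw [Matrix.transpose_add, Matrix.transpose_mul, Matrix.add_mul, Matrix.mul_add,
          Matrix.mul_assoc]

end

/-- [DEC2] -/
theorem pkgDec2 : PkgDec2.{u} := by
  intro F _ α β _ _ _ _ K X hK hX hrk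
  obtain ⟨P, N, A, hN, hA, hM⟩ := Cfsg.Agent.Lib.Helper40.fitting_exists (X * X + X) hrk
  obtain ⟨Pm, hPm⟩ : ∃ Pm : Matrix (α ⊕ β) (α ⊕ β) F, Pm = P.val := ⟨_, rfl⟩
  obtain ⟨Pi, hPi⟩ : ∃ Pi : Matrix (α ⊕ β) (α ⊕ β) F, Pi = (P⁻¹).val := ⟨_, rfl⟩
  have h1 : Pm * Pi = 1 := by rw [hPm, hPi, ← Units.val_mul, mul_inv_cancel, Units.val_one]
  have h2 : Pi * Pm = 1 := by rw [hPm, hPi, ← Units.val_mul, inv_mul_cancel, Units.val_one]
  obtain ⟨D, hD⟩ : ∃ D : Matrix (α ⊕ β) (α ⊕ β) F, D = Matrix.fromBlocks N 0 0 A := ⟨_, rfl⟩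
  rw [← hPm, ← hD] at hM
  obtain ⟨X', hX'⟩ : ∃ X' : Matrix (α ⊕ β) (α ⊕ β) F, X' = Pi * X * Pm := ⟨_, rfl⟩
  have hXP : X * Pm = Pm * X' := by
    rw [hX', ← Matrix.mul_assoc, ← Matrix.mul_assoc, h1, Matrix.one_mul]
  have hXM : X * (X * X + X) = (X * X + X) * X := by
    rw [Matrix.mul_add, Matrix.add_mul, Matrix.mul_assoc]
  have hcomm : X' * D = D * X' := by
    rw [hX']
    exact conj_comm Pm Pi (X * X + X) D X h1 h2 hM hXM
  have hsq : X' * X' + X' = D := by
    have e : X' * X' + X' = Pi * ((X * X + X) * Pm) := by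
      rw [hX']
      calc Pi * X * Pm * (Pi * X * Pm) + Pi * X * Pm
          = Pi * X * (Pm * Pi) * X * Pm + Pi * X * Pm := by simp only [Matrix.mul_assoc]
        _ = Pi * ((X * X + X) * Pm) := by
            rw [h1]
            simp only [Matrix.mul_one, Matrix.mul_assoc, Matrix.add_mul, Matrix.mul_add]
    rw [e, hM, ← Matrix.mul_assoc, h2, Matrix.one_mul]
  obtain ⟨X11, X12, X21, X22, hXb⟩ :
      ∃ X11 X12 X21 X22, X' = Matrix.fromBlocks X11 X12 X21 X22 :=
    ⟨_, _, _, _, (Matrix.fromBlocks_toBlocks X').symm⟩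
  have hc := hcomm
  rw [hXb, hD, Matrix.fromBlocks_multiply, Matrix.fromBlocks_multiply, Matrix.fromBlocks_inj]
    at hc
  obtain ⟨-, hc12, hc21, -⟩ := hc
  simp only [Matrix.zero_mul, Matrix.mul_zero, add_zero, zero_add] at hc12 hc21
  have hX12 : X12 = 0 := sylv_left N A hN hA X12 hc12
  have hX21 : X21 = 0 := sylv_right N A hN hA X21 hc21
  subst hX12 hX21
  have hs := hsq
  rw [hXb, hD, Matrix.fromBlocks_multiply, Matrix.fromBlocks_add, Matrix.fromBlocks_inj] at hs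
  obtain ⟨hs1, -, -, hs2⟩ := hs
  simp only [Matrix.zero_mul, Matrix.mul_zero, add_zero, zero_add] at hs1 hs2
  -- the form
  obtain ⟨K', hK'⟩ : ∃ K' : Matrix (α ⊕ β) (α ⊕ β) F, K' = Pmᵀ * K * Pm := ⟨_, rfl⟩
  have hAff' : AffA K' X' := by
    unfold AffA at hX ⊢
    have e : X'ᵀ * K' + K' * X' + K' = Pmᵀ * (Xᵀ * K + K * X + K) * Pm := by
      rw [hX', hK']
      have hPiT : Piᵀ * Pmᵀ = 1 := by rw [← Matrix.transpose_mul, h1, Matrix.transpose_one]
      simp only [Matrix.transpose_mul, Matrix.mul_add, Matrix.add_mul, Matrix.mul_assoc]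
      rw [← Matrix.mul_assoc Piᵀ, hPiT, Matrix.one_mul, ← Matrix.mul_assoc Pm Pi, h1,
        Matrix.one_mul]
    rw [e, hX, Matrix.mul_zero, Matrix.zero_mul]
  have hKD : K' * D = Dᵀ * K' := by
    rw [← hsq]
    exact affA_comm K' X' hAff'
  obtain ⟨hK'T, hK'd⟩ := alt_congr K hK.1 hK.2.1 Pm
  rw [← hK'] at hK'T hK'd
  obtain ⟨K11, K12, K21, K22, hKb⟩ :
      ∃ K11 K12 K21 K22, K' = Matrix.fromBlocks K11 K12 K21 K22 :=
    ⟨_, _, _, _, (Matrix.fromBlocks_toBlocks K').symm⟩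
  have hkd := hKD
  rw [hKb, hD, Matrix.fromBlocks_transpose, Matrix.fromBlocks_multiply,
    Matrix.fromBlocks_multiply, Matrix.fromBlocks_inj] at hkd
  obtain ⟨-, hk12, -, -⟩ := hkd
  simp only [Matrix.zero_mul, Matrix.mul_zero, add_zero, zero_add, Matrix.transpose_zero]
    at hk12
  have hNT : IsNilpotent Nᵀ := by
    obtain ⟨j, hj⟩ := hN
    exact ⟨j, by rw [← Matrix.transpose_pow, hj, Matrix.transpose_zero]⟩
  have hK12 : K12 = 0 := sylv_left Nᵀ A hNT hA K12 hk12
  have hkt := hK'T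
  rw [hKb, Matrix.fromBlocks_transpose, Matrix.fromBlocks_neg, Matrix.fromBlocks_inj] at hkt
  obtain ⟨ht11, ht21, ht12, ht22⟩ := hkt
  have hK21 : K21 = 0 := by
    have : K21ᵀ = 0 := by rw [ht21, hK12, neg_zero]
    exact Matrix.transpose_eq_zero.mp this
  subst hK12 hK21
  have hdetK' : IsUnit K'.det := by
    rw [hK', Matrix.det_mul, Matrix.det_mul, Matrix.det_transpose]
    have hP : IsUnit Pm.det := by
      rw [hPm]
      exact (Matrix.isUnit_iff_isUnit_det _).mp P.isUnit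
    exact (hP.mul ((Matrix.isUnit_iff_isUnit_det _).mp hK.2.2)).mul hP
  rw [hKb, Matrix.det_fromBlocks_zero₂₁] at hdetK'
  have hu1 : IsUnit K11 :=
    (Matrix.isUnit_iff_isUnit_det _).mpr (isUnit_of_mul_isUnit_left hdetK')
  have hu2 : IsUnit K22 :=
    (Matrix.isUnit_iff_isUnit_det _).mpr (isUnit_of_mul_isUnit_right hdetK')
  have ha := hAff'
  unfold AffA at ha
  rw [hXb, hKb, Matrix.fromBlocks_transpose, Matrix.fromBlocks_multiply,
    Matrix.fromBlocks_multiply, Matrix.fromBlocks_add, Matrix.fromBlocks_add,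
    ← Matrix.fromBlocks_zero, Matrix.fromBlocks_inj] at ha
  obtain ⟨ha1, -, -, ha2⟩ := ha
  simp only [Matrix.zero_mul, Matrix.mul_zero, add_zero, zero_add, Matrix.transpose_zero]
    at ha1 ha2
  refine ⟨P, K11, K22, X11, X22, ⟨ht11, fun i => ?_, hu1⟩, ⟨ht22, fun i => ?_, hu2⟩, ?_, ?_,
    ha1, ha2, ?_, ?_⟩
  · have := hK'd (Sum.inl i)
    rw [hKb] at this
    simpa using this
  · have := hK'd (Sum.inr i)
    rw [hKb] at this
    simpa using this
  · rw [← hPm, ← hK', hKb]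
  · rw [← hPm, hXP, hXb]
  · rw [hs1]
    exact hN
  · rw [Matrix.isUnit_iff_isUnit_det]
    have hdet : IsUnit (X22 * (X22 + 1)).det := by
      rw [Matrix.mul_add, Matrix.mul_one, hs2]
      exact (Matrix.isUnit_iff_isUnit_det _).mp hA
    rw [Matrix.det_mul] at hdet
    exact isUnit_of_mul_isUnit_left hdet

end Cfsg.Agent.Lib.Helper11.SPU
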