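-- Team project SPU (S2316): package [LAGDEC] (helper11).
import Mathlib
import Cfsg.Agent.Lib.Helper19.SPU.Defs
import Cfsg.Agent.Lib.Helper11.SPU.Dec2

/-!
# SPU [LAGDEC]: Lagrangian normal form of `X ∈ 𝒜(J)` with `X² + X` nilpotent
-/

set_option autoImplicit false

namespace Cfsg.Agent.Lib.Helper11.SPU

open Matrix Cfsg.Agent.Lib.Helper19.SPU

universe u

section

variable {F : Type u} [Field F]

/-- the standard form is symplectic -/
theorem isSymp_J (k : ℕ) : IsSymp (Matrix.J (Fin k) F) := by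
  refine ⟨Matrix.J_transpose (Fin k) F, ?_, ?_⟩
  · intro i
    rcases i with i | i <;> simp [Matrix.J]
  · exact (Matrix.isUnit_iff_isUnit_det _).mpr (Matrix.isUnit_det_J (Fin k) F)

/-- the affine family is stable under congruence / conjugation -/
theorem affA_conj {n : Type} [Fintype n] [DecidableEq n] (K X Pm Pi : Matrix n n F)
    (h1 : Pm * Pi = 1) (hX : AffA K X) : AffA (Pmᵀ * K * Pm) (Pi * X * Pm) := by
  unfold AffA at hX ⊢
  have e : (Pi * X * Pm)ᵀ * (Pmᵀ * K * Pm) + Pmᵀ * K * Pm * (Pi * X * Pm) + Pmᵀ * K * Pm =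
      Pmᵀ * (Xᵀ * K + K * X + K) * Pm := by
    have hPiT : Piᵀ * Pmᵀ = 1 := by rw [← Matrix.transpose_mul, h1, Matrix.transpose_one]
    simp only [Matrix.transpose_mul, Matrix.mul_add, Matrix.add_mul, Matrix.mul_assoc]
    rw [← Matrix.mul_assoc Piᵀ, hPiT, Matrix.one_mul, ← Matrix.mul_assoc Pm Pi, h1,
      Matrix.one_mul]
  rw [e, hX, Matrix.mul_zero, Matrix.zero_mul]

end

/-- [LAGDEC] -/
theorem pkgLagDec : PkgLagRank.{u} → PkgLagDec.{u} := by
  intro hLR F _ k X hX hnil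
  have hrk : (X ^ (Fintype.card (Fin k) + Fintype.card (Fin k))).rank = Fintype.card (Fin k) := by
    have h := hLR F (Fin k ⊕ Fin k) (Matrix.J (Fin k) F) X (isSymp_J k) hX hnil
    rw [Fintype.card_sum] at h
    omega
  obtain ⟨P₀, N, A, hN, hA, hM⟩ := Cfsg.Agent.Lib.Helper40.fitting_exists X hrk
  obtain ⟨Pm, hPm⟩ : ∃ Pm : Matrix (Fin k ⊕ Fin k) (Fin k ⊕ Fin k) F, Pm = P₀.val := ⟨_, rfl⟩
  obtain ⟨Pi, hPi⟩ : ∃ Pi : Matrix (Fin k ⊕ Fin k) (Fin k ⊕ Fin k) F, Pi = (P₀⁻¹).val :=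
    ⟨_, rfl⟩
  have h1 : Pm * Pi = 1 := by rw [hPm, hPi, ← Units.val_mul, mul_inv_cancel, Units.val_one]
  have h2 : Pi * Pm = 1 := by rw [hPm, hPi, ← Units.val_mul, inv_mul_cancel, Units.val_one]
  obtain ⟨D, hD⟩ : ∃ D : Matrix (Fin k ⊕ Fin k) (Fin k ⊕ Fin k) F,
      D = Matrix.fromBlocks N 0 0 A := ⟨_, rfl⟩
  rw [← hPm, ← hD] at hM
  have hDX : D = Pi * X * Pm := by rw [Matrix.mul_assoc, hM, ← Matrix.mul_assoc, h2, Matrix.one_mul]
  -- `A + 1` is nilpotent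
  have hA1 : IsNilpotent (A + 1) := by
    have hsc : (X * X + X) * Pm = Pm * (D * D + D) := by
      rw [Matrix.add_mul, Matrix.mul_add, Matrix.mul_assoc, hM, ← Matrix.mul_assoc, hM,
        Matrix.mul_assoc]
    obtain ⟨j, hj⟩ := hnil
    have hsc' : SemiconjBy Pm (D * D + D) (X * X + X) := hsc.symm
    have hp : Pm * (D * D + D) ^ j = (X * X + X) ^ j * Pm := (hsc'.pow_right j).eq
    have hz : (D * D + D) ^ j = 0 := by
      calc (D * D + D) ^ j = Pi * (Pm * (D * D + D) ^ j) := by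
            rw [← Matrix.mul_assoc, h2, Matrix.one_mul]
        _ = 0 := by rw [hp, hj, Matrix.zero_mul, Matrix.mul_zero]
    have hb : D * D + D = Matrix.fromBlocks (N * N + N) 0 0 (A * A + A) := by
      rw [hD, Matrix.fromBlocks_multiply, Matrix.fromBlocks_add]
      simp
    rw [hb, Cfsg.Agent.Lib.Helper40.fromBlocks_diag_pow, ← Matrix.fromBlocks_zero,
      Matrix.fromBlocks_inj] at hz
    obtain ⟨-, -, -, hz2⟩ := hz
    have hAA : A * A + A = A * (A + 1) := by rw [Matrix.mul_add, Matrix.mul_one]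
    have hcm : Commute A (A + 1) := (Commute.refl A).add_right (Commute.one_right A)
    rw [hAA, hcm.mul_pow] at hz2
    obtain ⟨u, hu⟩ := hA.pow j
    refine ⟨j, ?_⟩
    calc (A + 1) ^ j = ((u⁻¹).val * u.val) * (A + 1) ^ j := by
          rw [Units.inv_mul, Matrix.one_mul]
      _ = (u⁻¹).val * (A ^ j * (A + 1) ^ j) := by rw [Matrix.mul_assoc, hu]
      _ = 0 := by rw [hz2, Matrix.mul_zero]
  -- the form in the new basis
  obtain ⟨K', hK'⟩ : ∃ K' : Matrix (Fin k ⊕ Fin k) (Fin k ⊕ Fin k) F,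
      K' = Pmᵀ * Matrix.J (Fin k) F * Pm := ⟨_, rfl⟩
  have hAff' : AffA K' D := by
    rw [hK', hDX]
    exact affA_conj _ X Pm Pi h1 hX
  obtain ⟨hK'T, -⟩ := alt_congr (Matrix.J (Fin k) F) (isSymp_J k).1 (isSymp_J k).2.1 Pm
  rw [← hK'] at hK'T
  obtain ⟨K11, B, C, K22, hKb⟩ :
      ∃ K11 K12 K21 K22, K' = Matrix.fromBlocks K11 K12 K21 K22 :=
    ⟨_, _, _, _, (Matrix.fromBlocks_toBlocks K').symm⟩
  have ha := hAff'
  unfold AffA at ha
  rw [hD, hKb, Matrix.fromBlocks_transpose, Matrix.fromBlocks_multiply,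
    Matrix.fromBlocks_multiply, Matrix.fromBlocks_add, Matrix.fromBlocks_add,
    ← Matrix.fromBlocks_zero, Matrix.fromBlocks_inj] at ha
  obtain ⟨ha11, ha12, -, ha22⟩ := ha
  simp only [Matrix.zero_mul, Matrix.mul_zero, add_zero, zero_add, Matrix.transpose_zero]
    at ha11 ha12 ha22
  -- ha11 : Nᵀ * K11 + K11 * N + K11 = 0 ; ha12 : Nᵀ * B + B * A + B = 0 ;
  -- ha22 : Aᵀ * K22 + K22 * A + K22 = 0
  have hNT : IsNilpotent (-Nᵀ) := by
    obtain ⟨j, hj⟩ := hN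
    have hNT0 : IsNilpotent Nᵀ := ⟨j, by rw [← Matrix.transpose_pow, hj, Matrix.transpose_zero]⟩
    exact hNT0.neg
  have hK11 : K11 = 0 := by
    refine sylv_left (-Nᵀ) (N + 1) hNT hN.isUnit_add_one K11 ?_
    rw [Matrix.mul_add, Matrix.mul_one, Matrix.neg_mul, eq_neg_iff_add_eq_zero, ← ha11]
    abel
  have hAT : IsNilpotent (Aᵀ + 1) := by
    obtain ⟨j, hj⟩ := hA1
    refine ⟨j, ?_⟩
    have : Aᵀ + 1 = (A + 1)ᵀ := by rw [Matrix.transpose_add, Matrix.transpose_one]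
    rw [this, ← Matrix.transpose_pow, hj, Matrix.transpose_zero]
  have hK22 : K22 = 0 := by
    refine sylv_left (Aᵀ + 1) (-A) hAT hA.neg K22 ?_
    rw [Matrix.mul_neg, Matrix.add_mul, Matrix.one_mul, neg_eq_iff_add_eq_zero, ← ha22]
    abel
  subst hK11 hK22
  have hkt := hK'T
  rw [hKb, Matrix.fromBlocks_transpose, Matrix.fromBlocks_neg, Matrix.fromBlocks_inj] at hkt
  obtain ⟨-, ht21, -, -⟩ := hkt
  -- ht21 : Cᵀ = -B
  have hC : C = -Bᵀ := by
    have := congrArg Matrix.transpose ht21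
    rw [Matrix.transpose_transpose, Matrix.transpose_neg] at this
    exact this
  -- `B` is invertible
  have hdetK' : IsUnit K'.det := by
    rw [hK', Matrix.det_mul, Matrix.det_mul, Matrix.det_transpose]
    have hP : IsUnit Pm.det := by
      rw [hPm]
      exact (Matrix.isUnit_iff_isUnit_det _).mp P₀.isUnit
    exact (hP.mul (Matrix.isUnit_det_J (Fin k) F)).mul hP
  have hKK := Matrix.mul_nonsing_inv K' hdetK'
  obtain ⟨a, b, c, d, hKi⟩ : ∃ a b c d, K'⁻¹ = Matrix.fromBlocks a b c d :=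
    ⟨_, _, _, _, (Matrix.fromBlocks_toBlocks K'⁻¹).symm⟩
  rw [hKi, hKb, Matrix.fromBlocks_multiply, ← Matrix.fromBlocks_one, Matrix.fromBlocks_inj]
    at hKK
  obtain ⟨hBc, -, -, -⟩ := hKK
  simp only [Matrix.zero_mul, zero_add] at hBc
  have hdetB : IsUnit B.det := by
    have : B.det * c.det = 1 := by rw [← Matrix.det_mul, hBc, Matrix.det_one]
    exact IsUnit.of_mul_eq_one _ this
  obtain ⟨Bi, hBi⟩ : ∃ Bi : Matrix (Fin k) (Fin k) F, Bi = B⁻¹ := ⟨_, rfl⟩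
  have hBBi : B * Bi = 1 := by rw [hBi]; exact Matrix.mul_nonsing_inv B hdetB
  have hBiB : Bi * B = 1 := by rw [hBi]; exact Matrix.nonsing_inv_mul B hdetB
  -- the new basis
  let Q₂ : GL (Fin k) F := ⟨-Bi, -B, by rw [neg_mul_neg, hBiB], by
    rw [neg_mul_neg, hBBi]⟩
  obtain ⟨Dg, hDg⟩ : ∃ Dg : GL (Fin k ⊕ Fin k) F,
      Dg.val = Matrix.fromBlocks 1 0 0 (-Bi) :=
    ⟨Cfsg.Agent.Lib.Helper40.diagGL 1 Q₂, rfl⟩
  have hBA : B * A = -(Nᵀ * B) - B := by
    rw [eq_sub_iff_add_eq, eq_neg_iff_add_eq_zero, ← ha12]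
    abel
  have hABi : A * Bi = -(Bi * Nᵀ) - Bi := by
    calc A * Bi = Bi * (B * A) * Bi := by
          rw [← Matrix.mul_assoc, hBiB, Matrix.one_mul]
      _ = -(Bi * Nᵀ * (B * Bi)) - Bi * (B * Bi) := by
          rw [hBA]
          simp only [Matrix.mul_sub, Matrix.sub_mul, Matrix.mul_neg, Matrix.neg_mul,
            Matrix.mul_assoc]
      _ = -(Bi * Nᵀ) - Bi := by rw [hBBi, Matrix.mul_one, Matrix.mul_one]
  refine ⟨P₀ * Dg, N, ?_, hN, ?_⟩
  · unfold Isom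
    rw [Units.val_mul, hDg, ← hPm, Matrix.transpose_mul]
    have e : (Matrix.fromBlocks (1 : Matrix (Fin k) (Fin k) F) 0 0 (-Bi))ᵀ * Pmᵀ *
        Matrix.J (Fin k) F * (Pm * Matrix.fromBlocks 1 0 0 (-Bi)) =
        (Matrix.fromBlocks (1 : Matrix (Fin k) (Fin k) F) 0 0 (-Bi))ᵀ * K' *
          Matrix.fromBlocks 1 0 0 (-Bi) := by
      rw [hK']
      simp only [Matrix.mul_assoc]
    rw [e, hKb, Matrix.fromBlocks_transpose, Matrix.fromBlocks_multiply,
      Matrix.fromBlocks_multiply, Matrix.J, Matrix.fromBlocks_inj]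
    refine ⟨by simp, ?_, ?_, by simp⟩
    · simp only [Matrix.zero_mul, Matrix.mul_zero, Matrix.one_mul, zero_add, add_zero,
        Matrix.transpose_one, Matrix.transpose_zero]
      rw [Matrix.mul_neg, hBBi]
    · simp only [Matrix.zero_mul, Matrix.mul_zero, Matrix.mul_one, zero_add, add_zero,
        Matrix.transpose_zero]
      rw [hC, Matrix.transpose_neg, neg_mul_neg, ← Matrix.transpose_mul, hBBi,
        Matrix.transpose_one]
  · rw [Units.val_mul, hDg, ← hPm, ← Matrix.mul_assoc, hM, hD, Matrix.mul_assoc,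
      Matrix.mul_assoc, Matrix.fromBlocks_multiply, Matrix.fromBlocks_multiply]
    congr 2
    · simp
    · simp
    · simp
    · simp only [Matrix.zero_mul, Matrix.mul_zero, zero_add]
      rw [Matrix.mul_neg, hABi, Matrix.neg_mul, Matrix.mul_sub, Matrix.mul_neg, Matrix.mul_one]
      abel

end Cfsg.Agent.Lib.Helper11.SPU
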